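import Mathlib
import Cfsg.Prelude
import Cfsg.Agent.Lib.Helper68.Half.Defs

/-!
# HALF project (S3371): package [DIH]

A non-abelian dihedral `2`-group has the data `MCData C z` with `C` the rotation subgroup.
-/

set_option autoImplicit false

universe v w

namespace Cfsg.Agent.Lib.Helper66.Half

open Cfsg.Agent.Lib.Helper68.Half DihedralGroup

/-- the rotation subgroup of the dihedral group -/
def dihRot (n : ℕ) : Subgroup (DihedralGroup n) where
  carrier := {g | ∃ i, g = r i}
  one_mem' := ⟨0, rfl⟩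
  mul_mem' := by
    rintro _ _ ⟨i, rfl⟩ ⟨j, rfl⟩
    exact ⟨i + j, r_mul_r i j⟩
  inv_mem' := by
    rintro _ ⟨i, rfl⟩
    exact ⟨-i, inv_r i⟩

theorem r_mem_dihRot {n : ℕ} (i : ZMod n) : r i ∈ dihRot n := ⟨i, rfl⟩

theorem sr_not_mem_dihRot {n : ℕ} (i : ZMod n) : sr i ∉ dihRot n := by
  rintro ⟨j, hj⟩
  cases hj

theorem dihRot_index (n : ℕ) : (dihRot n).index = 2 := by
  rw [Subgroup.index_eq_two_iff]
  refine ⟨sr 0, fun b => ?_⟩
  cases b with
  | r i =>
    right
    refine ⟨r_mem_dihRot i, ?_⟩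
    rw [r_mul_sr]
    exact sr_not_mem_dihRot _
  | sr i =>
    left
    refine ⟨?_, sr_not_mem_dihRot i⟩
    rw [sr_mul_sr]
    exact r_mem_dihRot _

/-- transport of `MCData` along an isomorphism -/
theorem mcdata_transport {G : Type v} {D : Type w} [Group G] [Group D] (e : G ≃* D)
    (C' : Subgroup D) (z' : D) (h : MCData C' z') :
    MCData (C'.comap e.toMonoidHom) (e.symm z') ∧
      Nat.card {t : G // t ∉ C'.comap e.toMonoidHom ∧ t * t = 1} =
        Nat.card {t : D // t ∉ C' ∧ t * t = 1} := by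
  obtain ⟨h1, h2, h3, h4, h5, h6, h7⟩ := h
  refine ⟨⟨?_, ?_, ?_, ?_, ?_, ?_, ?_⟩, ?_⟩
  · exact (Subgroup.index_comap_of_surjective C' (f := e.toMonoidHom) e.surjective).trans h1
  · show e (e.symm z') ∈ C'
    rw [e.apply_symm_apply]
    exact h2
  · rw [Subgroup.mem_center_iff]
    intro g
    apply e.injective
    rw [map_mul, map_mul, e.apply_symm_apply]
    exact Subgroup.mem_center_iff.mp h3 (e g)
  · intro h
    apply h4
    have := congrArg e h
    rwa [e.apply_symm_apply, map_one] at this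
  · apply e.injective
    rw [map_mul, e.apply_symm_apply, map_one]
    exact h5
  · intro c hc hc1
    obtain ⟨j, hj⟩ := h6 (e c) hc (fun h => hc1 (e.injective (by rw [h, map_one])))
    exact ⟨j, e.injective (by rw [map_pow, hj, e.apply_symm_apply])⟩
  · intro t ht htt
    obtain ⟨g, hg⟩ := h7 (e t) ht (by rw [← map_mul, htt, map_one])
    refine ⟨e.symm g, e.injective ?_⟩
    rw [map_mul, map_mul, map_inv, e.apply_symm_apply, map_mul, e.apply_symm_apply]
    exact hg
  · refine Nat.card_congr (e.toEquiv.subtypeEquiv (fun t => ?_))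
    refine and_congr Iff.rfl ?_
    constructor
    · intro h
      show e t * e t = 1
      rw [← map_mul, h, map_one]
    · intro h
      apply e.injective
      rw [map_mul, map_one]
      exact h

/-- the core computation in `DihedralGroup (2 ^ k)`, `2 ≤ k` -/
theorem dih_core (k : ℕ) (hk : 2 ≤ k) :
    MCData (dihRot (2 ^ k)) (r ((2 ^ (k - 1) : ℕ) : ZMod (2 ^ k))) ∧
      Nat.card {t : DihedralGroup (2 ^ k) // t ∉ dihRot (2 ^ k) ∧ t * t = 1} = 2 ^ k := by
  haveI : NeZero (2 ^ k) := ⟨by positivity⟩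
  set c : ZMod (2 ^ k) := ((2 ^ (k - 1) : ℕ) : ZMod (2 ^ k)) with hc
  have hkk : 2 ^ (k - 1) + 2 ^ (k - 1) = 2 ^ k := by
    have : k = (k - 1) + 1 := by omega
    conv_rhs => rw [this, pow_succ]
    ring
  have hcc : c + c = 0 := by
    rw [hc, ← Nat.cast_add, hkk]
    exact ZMod.natCast_self (2 ^ k)
  have hc0 : c ≠ 0 := by
    rw [hc]
    intro h0
    rw [ZMod.natCast_eq_zero_iff] at h0
    have h1 := Nat.le_of_dvd (by positivity) h0
    have h2 : 2 ^ (k - 1) < 2 ^ k := Nat.pow_lt_pow_right (by norm_num) (by omega)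
    omega
  have hneg : -c = c := neg_eq_of_add_eq_zero_left hcc
  have huniq : ∀ i : ZMod (2 ^ k), i + i = 0 → i ≠ 0 → i = c := by
    intro i hii hi0
    have h1 : ((i.val + i.val : ℕ) : ZMod (2 ^ k)) = 0 := by
      rw [Nat.cast_add, ZMod.natCast_zmod_val]
      exact hii
    rw [ZMod.natCast_eq_zero_iff] at h1
    have h2 : 2 ^ (k - 1) ∣ i.val := by
      have h3 : 2 * 2 ^ (k - 1) ∣ 2 * i.val := by
        have : 2 * 2 ^ (k - 1) = 2 ^ k := by rw [two_mul]; exact hkk
        rw [this, two_mul]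
        exact h1
      exact (Nat.mul_dvd_mul_iff_left (by norm_num)).mp h3
    obtain ⟨m, hm⟩ := h2
    have hlt : i.val < 2 ^ k := ZMod.val_lt i
    have hm2 : m < 2 := by
      by_contra hge
      push_neg at hge
      have : 2 ^ (k - 1) * 2 ≤ 2 ^ (k - 1) * m := Nat.mul_le_mul_left _ hge
      rw [← hm] at this
      omega
    have hm0 : m ≠ 0 := by
      rintro rfl
      rw [mul_zero] at hm
      apply hi0
      exact (ZMod.val_eq_zero i).mp hm
    have hm1 : m = 1 := by omega
    rw [hm1, mul_one] at hm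
    rw [hc, ← hm, ZMod.natCast_zmod_val]
  refine ⟨⟨dihRot_index _, r_mem_dihRot _, ?_, ?_, ?_, ?_, ?_⟩, ?_⟩
  · -- central
    rw [Subgroup.mem_center_iff]
    intro g
    cases g with
    | r j => rw [r_mul_r, r_mul_r, add_comm]
    | sr j =>
      rw [sr_mul_r, r_mul_sr, sub_eq_add_neg, hneg]
  · -- z ≠ 1
    intro h1
    rw [one_def] at h1
    exact hc0 (r.inj h1)
  · -- z * z = 1
    rw [r_mul_r, hcc, r_zero]
  · -- powers
    intro x hx hx1
    obtain ⟨i, rfl⟩ := hx
    have hpow : (r i : DihedralGroup (2 ^ k)) ^ (2 ^ k) = 1 := by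
      rw [r_pow, ZMod.natCast_self, mul_zero, r_zero]
    have hdvd := orderOf_dvd_of_pow_eq_one hpow
    obtain ⟨b, hbk, hb⟩ := (Nat.dvd_prime_pow Nat.prime_two).mp hdvd
    have hb0 : b ≠ 0 := by
      rintro rfl
      rw [pow_zero, orderOf_eq_one_iff] at hb
      exact hx1 hb
    refine ⟨2 ^ (b - 1), ?_⟩
    have hbb : 2 ^ (b - 1) + 2 ^ (b - 1) = 2 ^ b := by
      have : b = (b - 1) + 1 := by omega
      conv_rhs => rw [this, pow_succ]
      ring
    have hy : (r i : DihedralGroup (2 ^ k)) ^ (2 ^ (b - 1)) =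
        r (i * ((2 ^ (b - 1) : ℕ) : ZMod (2 ^ k))) := r_pow i _
    rw [hy]
    congr 1
    apply huniq
    · have h1 : (r i : DihedralGroup (2 ^ k)) ^ (2 ^ (b - 1)) *
          (r i : DihedralGroup (2 ^ k)) ^ (2 ^ (b - 1)) = 1 := by
        rw [← pow_add, hbb, ← hb]
        exact pow_orderOf_eq_one _
      rw [hy, r_mul_r, one_def] at h1
      exact r.inj h1
    · intro h0
      rw [h0, r_zero] at hy
      have h1 := orderOf_dvd_of_pow_eq_one hy
      rw [hb] at h1
      have h2 := Nat.le_of_dvd (by positivity) h1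
      have h3 : 2 ^ (b - 1) < 2 ^ b := Nat.pow_lt_pow_right (by norm_num) (by omega)
      omega
  · -- conjugation
    intro t ht htt
    cases t with
    | r i => exact absurd (r_mem_dihRot i) ht
    | sr i =>
      set d : ZMod (2 ^ k) := ((2 ^ (k - 2) : ℕ) : ZMod (2 ^ k)) with hd
      have hdd : d + d = c := by
        rw [hd, hc, ← Nat.cast_add]
        congr 1
        have : k - 1 = (k - 2) + 1 := by omega
        rw [this, pow_succ]
        ring
      refine ⟨r d, ?_⟩
      rw [mul_inv_eq_iff_eq_mul, r_mul_sr, sr_mul_r, sr_mul_r]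
      congr 1
      have : i + c + d = i - d + (c + (d + d)) := by ring
      rw [this, hdd, hcc, add_zero]
  · -- the count
    have hset : {t : DihedralGroup (2 ^ k) | t ∉ dihRot (2 ^ k) ∧ t * t = 1} =
        Set.range (sr : ZMod (2 ^ k) → DihedralGroup (2 ^ k)) := by
      ext t
      constructor
      · rintro ⟨ht, -⟩
        cases t with
        | r i => exact absurd (r_mem_dihRot i) ht
        | sr i => exact ⟨i, rfl⟩
      · rintro ⟨i, rfl⟩
        exact ⟨sr_not_mem_dihRot i, sr_mul_self i⟩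
    show Nat.card ↥{t : DihedralGroup (2 ^ k) | t ∉ dihRot (2 ^ k) ∧ t * t = 1} = 2 ^ k
    rw [hset, Nat.card_range_of_injective (fun a b h => sr.inj h), Nat.card_zmod]

/-- [DIH] -/
theorem pkgDih : PkgDih.{v} := by
  intro G _ _ n hG ⟨e⟩ hnab
  have hcard : Nat.card G = 2 * n := by
    rw [Nat.card_congr e.toEquiv, DihedralGroup.nat_card]
  have hn0 : n ≠ 0 := by
    rintro rfl
    have := Nat.card_pos (α := G)
    omega
  obtain ⟨a, ha⟩ := IsPGroup.iff_card.mp hG
  have hnd : n ∣ 2 ^ a := by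
    rw [← ha, hcard]
    exact dvd_mul_left n 2
  obtain ⟨k, hka, rfl⟩ := (Nat.dvd_prime_pow Nat.prime_two).mp hnd
  have hk : 2 ≤ k := by
    by_contra hlt
    push_neg at hlt
    apply hnab
    have h2 : ∀ i : ZMod (2 ^ k), i + i = 0 := by
      intro i
      have h20 : ((2 : ℕ) : ZMod (2 ^ k)) = 0 := by
        rw [ZMod.natCast_eq_zero_iff]
        interval_cases k <;> norm_num
      rw [← two_mul]
      have : (2 : ZMod (2 ^ k)) = ((2 : ℕ) : ZMod (2 ^ k)) := by norm_cast
      rw [this, h20, zero_mul]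
    have hneg : ∀ i : ZMod (2 ^ k), -i = i := fun i => neg_eq_of_add_eq_zero_left (h2 i)
    have hD : ∀ x y : DihedralGroup (2 ^ k), x * y = y * x := by
      intro x y
      cases x with
      | r i =>
        cases y with
        | r j => rw [r_mul_r, r_mul_r, add_comm]
        | sr j => rw [r_mul_sr, sr_mul_r, sub_eq_add_neg, hneg]
      | sr i =>
        cases y with
        | r j => rw [r_mul_sr, sr_mul_r, sub_eq_add_neg, hneg]
        | sr j =>
          rw [sr_mul_sr, sr_mul_sr]
          congr 1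
          rw [← hneg (i - j), neg_sub]
    intro a b
    apply e.injective
    rw [map_mul, map_mul, hD]
  obtain ⟨hMC, hcardT⟩ := dih_core k hk
  obtain ⟨h1, h2⟩ := mcdata_transport e _ _ hMC
  exact ⟨k, (dihRot (2 ^ k)).comap e.toMonoidHom,
    e.symm (r ((2 ^ (k - 1) : ℕ) : ZMod (2 ^ k))), rfl, h1, h2.trans hcardT⟩

end Cfsg.Agent.Lib.Helper66.Half
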