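import Mathlib
import Cfsg.Prelude
import Cfsg.Agent.Lib.Helper68.Half.Defs
import Cfsg.Agent.S3370

/-!
# HALF project (S3371): package [IMPQUOT]

The group induced by `H` on the block `W 0` is a transitive `2`-group of linear maps:
the landed S3370 gives the cardinality of `W 0`.
-/

set_option autoImplicit false

universe u v

namespace Cfsg.Agent.Lib.Helper66.Half

open Cfsg.Agent.Lib.Helper68.Half

/-- restriction of the action of a subgroup `H` to an `H`-invariant submodule `U` -/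
def resHom {q : ℕ} [Fact q.Prime] {V : Type u} [AddCommGroup V] [Module (ZMod q) V]
    {G : Type v} [Group G] (ρ : G →* (V ≃ₗ[ZMod q] V)) (H : Subgroup G)
    (U : Submodule (ZMod q) V) (hinv : ∀ h ∈ H, ∀ w ∈ U, ρ h w ∈ U) :
    ↥H →* (↥U ≃ₗ[ZMod q] ↥U) where
  toFun h :=
    { toFun := fun w => ⟨ρ h.1 w.1, hinv h.1 h.2 w.1 w.2⟩
      map_add' := fun a b => Subtype.ext (by simp)
      map_smul' := fun c a => Subtype.ext (by simp)
      invFun := fun w => ⟨ρ h.1⁻¹ w.1, hinv h.1⁻¹ (H.inv_mem h.2) w.1 w.2⟩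
      left_inv := fun w => Subtype.ext (by
        show ρ h.1⁻¹ (ρ h.1 w.1) = w.1
        rw [← LinearEquiv.mul_apply, ← map_mul, inv_mul_cancel, map_one]
        rfl)
      right_inv := fun w => Subtype.ext (by
        show ρ h.1 (ρ h.1⁻¹ w.1) = w.1
        rw [← LinearEquiv.mul_apply, ← map_mul, mul_inv_cancel, map_one]
        rfl) }
  map_one' := by
    ext w
    show ρ (1 : G) w.1 = w.1
    rw [map_one]
    rfl
  map_mul' := by
    intro a b
    ext w
    show ρ (a.1 * b.1) w.1 = ρ a.1 (ρ b.1 w.1)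
    rw [map_mul]
    rfl

theorem resHom_apply_coe {q : ℕ} [Fact q.Prime] {V : Type u} [AddCommGroup V]
    [Module (ZMod q) V] {G : Type v} [Group G] (ρ : G →* (V ≃ₗ[ZMod q] V)) (H : Subgroup G)
    (U : Submodule (ZMod q) V) (hinv : ∀ h ∈ H, ∀ w ∈ U, ρ h w ∈ U) (h : ↥H) (w : ↥U) :
    ((resHom ρ H U hinv h w : ↥U) : V) = ρ h.1 w.1 := rfl

/-- [IMPQUOT] from [IMPTR] -/
theorem pkgImpQuot_of (hT : PkgImpTr.{u, v}) : PkgImpQuot.{u, v} := by
  intro q _ V _ _ _ _ G _ _ ρ hG hq2 hρ hEq H W hImpr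
  have hq : q.Prime := Fact.out
  have htr := hT ρ hρ hEq H W hImpr
  obtain ⟨hidx, hsup, hindep, hinvH, hfix, hswap⟩ := hImpr
  -- `W 0` is nontrivial
  have hW0 : ∃ w ∈ W 0, w ≠ 0 := by
    by_contra hcon
    push_neg at hcon
    obtain ⟨h₁, hh₁, hh₁ne, hh₁fix⟩ := hfix 1
    apply hh₁ne
    apply hρ
    rw [map_one]
    ext v
    have hv : v ∈ ⨆ i, W i := by rw [hsup]; exact Submodule.mem_top
    show ρ h₁ v = v
    refine Submodule.iSup_induction W (motive := fun v => ρ h₁ v = v) hv ?_ ?_ ?_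
    · intro i x hx
      fin_cases i
      · have : x = 0 := hcon x hx
        rw [this, map_zero]
      · exact hh₁fix x hx
    · exact map_zero _
    · intro x y hx hy
      rw [map_add, hx, hy]
  obtain ⟨w₀, hw₀, hw₀ne⟩ := hW0
  haveI : Nontrivial ↥(W 0) := ⟨⟨⟨w₀, hw₀⟩, 0, fun h => hw₀ne (congrArg Subtype.val h)⟩⟩
  -- the induced group
  set res := resHom ρ H (W 0) (fun h hh w hw => hinvH h hh 0 w hw) with hres
  haveI : Finite ↥res.range :=
    Finite.of_surjective res.rangeRestrict res.rangeRestrict_surjective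
  have hQ : IsPGroup 2 ↥res.range :=
    IsPGroup.of_surjective (hG.to_subgroup H) res.rangeRestrict res.rangeRestrict_surjective
  -- nontrivial
  have h2ne : (2 : ZMod q) ≠ 0 := by
    intro h0
    have h1 : ((2 : ℕ) : ZMod q) = 0 := by exact_mod_cast h0
    rw [ZMod.natCast_eq_zero_iff] at h1
    exact hq2 ((Nat.prime_dvd_prime_iff_eq hq Nat.prime_two).mp h1)
  have hnegne : -w₀ ≠ w₀ := by
    intro h
    have h1 : (2 : ZMod q) • w₀ = 0 := by
      rw [two_smul]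
      nth_rewrite 1 [← h]
      exact neg_add_cancel w₀
    rcases smul_eq_zero.mp h1 with h0 | h0
    · exact h2ne h0
    · exact hw₀ne h0
  obtain ⟨h₂, hh₂, hh₂w⟩ := htr w₀ (-w₀) hw₀ ((W 0).neg_mem hw₀) hw₀ne
    (neg_ne_zero.mpr hw₀ne)
  haveI : Nontrivial ↥res.range := by
    refine ⟨⟨⟨res ⟨h₂, hh₂⟩, ⟨⟨h₂, hh₂⟩, rfl⟩⟩, 1, ?_⟩⟩
    intro h
    have h1 : res ⟨h₂, hh₂⟩ = 1 := congrArg Subtype.val h
    have h3 : ((res ⟨h₂, hh₂⟩ ⟨w₀, hw₀⟩ : ↥(W 0)) : V) = w₀ := by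
      rw [h1]
      rfl
    rw [hres, resHom_apply_coe] at h3
    exact hnegne (hh₂w.symm.trans h3)
  have hinj : Function.Injective res.range.subtype := Subgroup.subtype_injective _
  have htrans : ∀ v w : ↥(W 0), v ≠ 0 → w ≠ 0 → ∃ g : ↥res.range, res.range.subtype g v = w := by
    intro v w hv hw
    obtain ⟨h, hh, hhw⟩ := htr v.1 w.1 v.2 w.2 (fun h0 => hv (Subtype.ext h0))
      (fun h0 => hw (Subtype.ext h0))
    refine ⟨⟨res ⟨h, hh⟩, ⟨⟨h, hh⟩, rfl⟩⟩, ?_⟩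
    apply Subtype.ext
    show ((res ⟨h, hh⟩ v : ↥(W 0)) : V) = w.1
    rw [hres, resHom_apply_coe]
    exact hhw
  rcases Cfsg.Agent.S3370.result q (V := ↥(W 0)) (G := ↥res.range) 2 hQ res.range.subtype hinj
    htrans with h | h | h
  · exact absurd h.1 hq2
  · obtain ⟨-, hc, ⟨m, hm, -⟩, -⟩ := h
    exact Or.inl ⟨hc, m, hm⟩
  · obtain ⟨-, h3, h9, -⟩ := h
    exact Or.inr ⟨h3, h9⟩

end Cfsg.Agent.Lib.Helper66.Half
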