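import Mathlib
import Cfsg.Prelude
import Cfsg.Agent.Lib.Helper68.Half.Defs

/-!
# HALF project (S3371): package [UNIQ]

A semiregular `p`-group of linear maps over `ZMod q`, `p ≠ q`, has at most one subgroup of
order `p`.
-/

set_option autoImplicit false

universe u v

namespace Cfsg.Agent.Lib.Helper66.Half

open Cfsg.Agent.Lib.Helper68.Half

/-- norm vanishing: `ρ` semiregular, `x ≠ 1`, `x ^ p = 1` imply `Σ_{k<p} ρ (x ^ k) v = 0` -/
theorem semi_norm_zero {q : ℕ} [Fact q.Prime] {V : Type u} [AddCommGroup V] [Module (ZMod q) V]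
    {G : Type v} [Group G] (ρ : G →* (V ≃ₗ[ZMod q] V)) (hS : Semi ρ) (p : ℕ) (x : G)
    (hx1 : x ≠ 1) (hxp : x ^ p = 1) (v : V) :
    ∑ k ∈ Finset.range p, ρ (x ^ k) v = 0 := by
  by_contra hne
  apply hx1
  apply hS _ hne
  rw [map_sum]
  have hstep : ∀ k, ρ x (ρ (x ^ k) v) = ρ (x ^ (k + 1)) v := by
    intro k
    rw [pow_succ', map_mul]
    rfl
  simp only [hstep]
  have h1 := Finset.sum_range_succ (fun k => ρ (x ^ k) v) p
  have h2 := Finset.sum_range_succ' (fun k => ρ (x ^ k) v) p
  rw [h1] at h2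
  simp only [hxp, pow_zero] at h2
  exact (add_right_cancel h2).symm

/-- [UNIQ] -/
theorem pkgUniq : PkgUniq.{u, v} := by
  intro q _ V _ _ _ _ G _ _ p _ ρ hG hpq hS H K hH hK
  have hp : p.Prime := Fact.out
  have hq : q.Prime := Fact.out
  -- `G` is nontrivial
  have hGnt : Nontrivial G := by
    by_contra hnt
    rw [not_nontrivial_iff_subsingleton] at hnt
    have h1 : Nat.card H = 1 := by
      have : Subsingleton H := inferInstance
      exact Nat.card_eq_one_iff_unique.mpr ⟨this, ⟨1⟩⟩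
    rw [hH] at h1
    exact hp.one_lt.ne' h1
  have := hG.center_nontrivial
  have hc : IsPGroup p (Subgroup.center G) := hG.to_subgroup _
  have hdvd : p ∣ Nat.card (Subgroup.center G) := by
    obtain ⟨n, hn⟩ := IsPGroup.iff_card.mp hc
    rw [hn]
    rcases Nat.eq_zero_or_pos n with h0 | h0
    · exfalso
      rw [h0, pow_zero] at hn
      have := (Nat.card_eq_one_iff_unique.mp hn).1
      exact not_subsingleton (Subgroup.center G) this
    · exact dvd_pow_self p h0.ne'
  obtain ⟨zc, hzc⟩ := exists_prime_orderOf_dvd_card' p hdvd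
  obtain ⟨z, hzmem⟩ := zc
  have hzord : orderOf z = p := by
    have := Subgroup.orderOf_coe (⟨z, hzmem⟩ : Subgroup.center G)
    rw [hzc] at this
    exact this
  have hzcomm : ∀ g : G, Commute z g := fun g =>
    (Subgroup.mem_center_iff.mp hzmem g).symm
  have hzp : z ^ p = 1 := by rw [← hzord]; exact pow_orderOf_eq_one z
  have hZcard : Nat.card (Subgroup.zpowers z) = p := by
    rw [Nat.card_zpowers, hzord]
  suffices key : ∀ H : Subgroup G, Nat.card H = p → H = Subgroup.zpowers z by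
    rw [key H hH, key K hK]
  intro H hH
  by_contra hne
  have hnle : ¬ H ≤ Subgroup.zpowers z := by
    intro hle
    apply hne
    exact Subgroup.eq_of_le_of_card_ge hle (by rw [hH, hZcard])
  obtain ⟨h, hhH, hhZ⟩ := SetLike.not_le_iff_exists.mp hnle
  have hhp : h ^ p = 1 := by
    have h1 : (⟨h, hhH⟩ : H) ^ Nat.card H = 1 := pow_card_eq_one'
    rw [hH] at h1
    have h2 := congrArg (Subtype.val) h1
    simpa using h2
  -- the elements `z ^ j * h`
  have hx1 : ∀ j : ℕ, z ^ j * h ≠ 1 := by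
    intro j hj
    apply hhZ
    have : h = (z ^ j)⁻¹ := eq_inv_of_mul_eq_one_right hj
    rw [this]
    exact Subgroup.inv_mem _ (Subgroup.pow_mem _ (Subgroup.mem_zpowers z) j)
  have hxpow : ∀ j k : ℕ, (z ^ j * h) ^ k = (z ^ k) ^ j * h ^ k := by
    intro j k
    rw [((hzcomm h).pow_left j).mul_pow, ← pow_mul, ← pow_mul, mul_comm j k]
  have hxp : ∀ j : ℕ, (z ^ j * h) ^ p = 1 := by
    intro j
    rw [hxpow, hzp, one_pow, hhp, one_mul]
  -- the double sum
  have hnt : ∃ v : V, v ≠ 0 := exists_ne 0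
  obtain ⟨v, hv⟩ := hnt
  have hdouble : ∑ j ∈ Finset.range p, ∑ k ∈ Finset.range p, ρ ((z ^ j * h) ^ k) v = 0 := by
    apply Finset.sum_eq_zero
    intro j _
    exact semi_norm_zero ρ hS p (z ^ j * h) (hx1 j) (hxp j) v
  rw [Finset.sum_comm] at hdouble
  have hinner : ∀ k ∈ Finset.range p, k ≠ 0 →
      ∑ j ∈ Finset.range p, ρ ((z ^ j * h) ^ k) v = 0 := by
    intro k hk hk0
    have hkp : k < p := Finset.mem_range.mp hk
    have hzk1 : z ^ k ≠ 1 := by
      intro h1
      have := orderOf_dvd_of_pow_eq_one h1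
      rw [hzord] at this
      exact absurd (Nat.le_of_dvd (Nat.pos_of_ne_zero hk0) this) (not_le.mpr hkp)
    have hzkp : (z ^ k) ^ p = 1 := by
      rw [← pow_mul, mul_comm, pow_mul, hzp, one_pow]
    have := semi_norm_zero ρ hS p (z ^ k) hzk1 hzkp (ρ (h ^ k) v)
    rw [← this]
    apply Finset.sum_congr rfl
    intro j _
    rw [hxpow, map_mul]
    rfl
  rw [Finset.sum_eq_single 0 (fun k hk hk0 => hinner k hk hk0)
    (fun h0 => absurd (Finset.mem_range.mpr hp.pos) h0)] at hdouble
  simp only [pow_zero, map_one, Finset.sum_const, Finset.card_range] at hdouble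
  have hpv : p • v = 0 := by simpa using hdouble
  have hpne : (p : ZMod q) ≠ 0 := by
    intro h0
    rw [ZMod.natCast_eq_zero_iff] at h0
    exact hpq ((Nat.prime_dvd_prime_iff_eq hq hp).mp h0).symm
  have hpv' : (p : ZMod q) • v = 0 := by
    rw [Nat.cast_smul_eq_nsmul]
    exact hpv
  rcases smul_eq_zero.mp hpv' with h0 | h0
  · exact hpne h0
  · exact hv h0

end Cfsg.Agent.Lib.Helper66.Half
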